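import Cfsg.Agent.Lib.Helper98.O72Defs
import Cfsg.Agent.Lib.Helper98.O72Fix
import Cfsg.Agent.Lib.Helper96.SpTI
import Cfsg.Agent.Lib.Helper46.O72TISUB

/-!
Project O72 (S5972), piece R2A (for helper98): eigenspaces of an involutory isometry of a
nondegenerate symmetric space in odd characteristic, and invariant totally isotropic subspaces.
-/

set_option autoImplicit false
set_option linter.unusedSectionVars false
set_option linter.unusedVariables false

namespace Cfsg.Agent.Lib.Helper98.O72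

open Module Cfsg Cfsg.Agent.Lib.Helper96.Sp

variable {F : Type*} [Field F] [Fintype F] {V : Type*} [AddCommGroup V] [Module F V]
  [FiniteDimensional F V] {B : LinearMap.BilinForm F V}

theorem r2a_mem_p (T : Module.End F V) (u : V) : u ∈ LinearMap.ker (T - 1) ↔ T u = u := by
  rw [LinearMap.mem_ker, LinearMap.sub_apply, Module.End.one_apply, sub_eq_zero]

theorem r2a_mem_m (T : Module.End F V) (u : V) : u ∈ LinearMap.ker (T + 1) ↔ T u = -u := by
  rw [LinearMap.mem_ker, LinearMap.add_apply, Module.End.one_apply, add_eq_zero_iff_eq_neg]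

theorem r2a_orth (hchar2 : (2 : F) ≠ 0) (T : Module.End F V) (hT : Isom B T) :
    Orth B (LinearMap.ker (T - 1)) (LinearMap.ker (T + 1)) := by
  intro u hu v hv
  have h1 := hT u v
  rw [(r2a_mem_p T u).1 hu, (r2a_mem_m T v).1 hv, map_neg] at h1
  have h3 : (2 : F) * B u v = 0 := by linear_combination -h1
  exact (mul_eq_zero.1 h3).resolve_left hchar2

theorem r2a_sup (hchar2 : (2 : F) ≠ 0) (T : Module.End F V) (hT2 : T * T = 1) :
    LinearMap.ker (T - 1) ⊔ LinearMap.ker (T + 1) = ⊤ := by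
  have hTT : ∀ v, T (T v) = v := fun v => by
    have h := congrArg (fun f : Module.End F V => f v) hT2
    simpa [Module.End.mul_apply] using h
  rw [eq_top_iff]
  intro v _
  have e : v = (2 : F)⁻¹ • (v + T v) + (2 : F)⁻¹ • (v - T v) := by
    rw [← smul_add]
    have e1 : v + T v + (v - T v) = (2 : F) • v := by
      rw [two_smul]
      abel
    rw [e1, smul_smul, inv_mul_cancel₀ hchar2, one_smul]
  rw [e]
  apply Submodule.add_mem_sup
  · apply Submodule.smul_mem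
    rw [r2a_mem_p, map_add, hTT]
    abel
  · apply Submodule.smul_mem
    rw [r2a_mem_m, map_sub, hTT]
    abel

theorem r2a_inf (hchar2 : (2 : F) ≠ 0) (T : Module.End F V) :
    LinearMap.ker (T - 1) ⊓ LinearMap.ker (T + 1) = ⊥ := by
  rw [eq_bot_iff]
  rintro u ⟨hu1, hu2⟩
  rw [Submodule.mem_bot]
  have e1 := (r2a_mem_p T u).1 hu1
  have e2 := (r2a_mem_m T u).1 hu2
  have e3 : (2 : F) • u = 0 := by
    rw [two_smul]
    nth_rewrite 2 [← e1]
    rw [e2]
    abel
  exact (smul_eq_zero.1 e3).resolve_left hchar2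

/-- PIECE R2A (1/3): eigenspaces of an involutory isometry. -/
theorem invol_decomp (hS : B.IsSymm) (hchar2 : (2 : F) ≠ 0) (hN : ND B ⊤)
    (T : Module.End F V) (hT : Isom B T) (hT2 : T * T = 1) :
    ND B (LinearMap.ker (T - 1)) ∧ ND B (LinearMap.ker (T + 1)) ∧
      Orth B (LinearMap.ker (T - 1)) (LinearMap.ker (T + 1)) ∧
      finrank F (LinearMap.ker (T - 1)) + finrank F (LinearMap.ker (T + 1)) = finrank F V := by
  have horth := r2a_orth hchar2 T hT
  have hsup := r2a_sup hchar2 T hT2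
  have hNp : ND B (LinearMap.ker (T - 1)) := nd_of_orth_sup hN horth hsup
  have hNm : ND B (LinearMap.ker (T + 1)) :=
    nd_of_orth_sup hN (orth_symm hS hchar2 horth) (by rw [sup_comm]; exact hsup)
  have hfr := (nd_sup hS hchar2 hNp hNm horth).2
  rw [hsup, finrank_top] at hfr
  exact ⟨hNp, hNm, horth, hfr.symm⟩

/-- PIECE R2A (2/3): sums of totally isotropic subspaces of the two eigenspaces. -/
theorem exists_ti_inv_of_eigen (hS : B.IsSymm) (hchar2 : (2 : F) ≠ 0) (hN : ND B ⊤)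
    (T : Module.End F V) (hT : Isom B T) (hT2 : T * T = 1) (U₁ U₂ : Submodule F V)
    (h₁ : U₁ ≤ LinearMap.ker (T - 1)) (h₂ : U₂ ≤ LinearMap.ker (T + 1))
    (ht₁ : Orth B U₁ U₁) (ht₂ : Orth B U₂ U₂) :
    (U₁ ⊔ U₂).map T ≤ U₁ ⊔ U₂ ∧ Orth B (U₁ ⊔ U₂) (U₁ ⊔ U₂) ∧
      finrank F ↥(U₁ ⊔ U₂) = finrank F U₁ + finrank F U₂ := by
  have horth := r2a_orth hchar2 T hT
  have h12 : Orth B U₁ U₂ := orth_mono horth h₁ h₂
  refine ⟨?_, ?_, ?_⟩
  · rw [Submodule.map_sup]
    apply sup_le_sup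
    · rintro _ ⟨u, hu, rfl⟩
      rw [(r2a_mem_p T u).1 (h₁ hu)]
      exact hu
    · rintro _ ⟨u, hu, rfl⟩
      rw [(r2a_mem_m T u).1 (h₂ hu)]
      exact U₂.neg_mem hu
  · have a1 : Orth B U₁ (U₁ ⊔ U₂) := orth_sup_right ht₁ h12
    have a2 : Orth B U₂ (U₁ ⊔ U₂) := orth_sup_right (orth_symm hS hchar2 h12) ht₂
    exact orth_symm hS hchar2
      (orth_sup_right (orth_symm hS hchar2 a1) (orth_symm hS hchar2 a2))
  · have h4 := Submodule.finrank_sup_add_finrank_inf_eq U₁ U₂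
    have h5 : U₁ ⊓ U₂ = ⊥ := by
      rw [eq_bot_iff, ← r2a_inf hchar2 T]
      exact inf_le_inf h₁ h₂
    rw [h5, finrank_bot] at h4
    omega

theorem r2a_ti_sub (hS : B.IsSymm) (hchar2 : (2 : F) ≠ 0) (hN : ND B ⊤)
    (K : Submodule F V) (hK : ND B K) (w : ℕ) (hw : w ≤ (finrank F K - 1) / 2) :
    ∃ U : Submodule F V, U ≤ K ∧ Orth B U U ∧ finrank F U = w := by
  rcases Nat.eq_zero_or_pos w with h0 | hpos
  · subst h0
    refine ⟨⊥, bot_le, ?_, finrank_bot F V⟩
    intro u hu v hv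
    rw [(Submodule.mem_bot F).1 hu, map_zero, LinearMap.zero_apply]
  · exact exists_ti_sub hS hchar2 hN K hK w (by omega)

/-- PIECE R2A (3/3): an involutory isometry in dimension `2d+1` fixes a totally isotropic
`m`-space for every `m < d`. -/
theorem exists_ti_inv_of_sq_one (hS : B.IsSymm) (hchar2 : (2 : F) ≠ 0) (hN : ND B ⊤)
    (T : Module.End F V) (hT : Isom B T) (hT2 : T * T = 1) (d m : ℕ)
    (hV : finrank F V = 2 * d + 1) (hm : m < d) :
    ∃ W : Submodule F V, W.map T ≤ W ∧ Orth B W W ∧ finrank F W = m := by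
  obtain ⟨hNp, hNm, horth, hfr⟩ := invol_decomp hS hchar2 hN T hT hT2
  rw [hV] at hfr
  obtain ⟨U₁, hU₁, ht₁, hw₁⟩ := r2a_ti_sub hS hchar2 hN _ hNp
    (min m ((finrank F (LinearMap.ker (T - 1)) - 1) / 2)) (min_le_right _ _)
  obtain ⟨U₂, hU₂, ht₂, hw₂⟩ := r2a_ti_sub hS hchar2 hN _ hNm
    (m - min m ((finrank F (LinearMap.ker (T - 1)) - 1) / 2)) (by omega)
  obtain ⟨g1, g2, g3⟩ := exists_ti_inv_of_eigen hS hchar2 hN T hT hT2 U₁ U₂ hU₁ hU₂ ht₁ ht₂
  refine ⟨U₁ ⊔ U₂, g1, g2, ?_⟩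
  rw [g3, hw₁, hw₂]
  omega

end Cfsg.Agent.Lib.Helper98.O72
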