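import Mathlib
import Cfsg.Prelude.Def_GeometricClasses
import Cfsg.Prelude.Def_LieClassical

/-! Project O9 (helper44, statement S5835), piece NO7L: a non-trivial element of odd order with
`rank (g - 1) ≤ 2` does not lie in a tensor wreath subgroup `3 ⊗ 3`. -/

set_option autoImplicit false
set_option linter.unusedSectionVars false

namespace Cfsg.Agent.Lib.Helper44.O9

open Matrix Cfsg.Geo
open scoped Kronecker

variable {n : ℕ} {F : Type*} [Field F] [Fintype F]

/-- splitting a sum over `Fin 2 → Fin 3` -/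
theorem NO7L_sum2 (φ ψ : Fin 3 → F) :
    ∑ y : Fin 2 → Fin 3, φ (y 0) * ψ (y 1) = (∑ i, φ i) * (∑ j, ψ j) := by
  rw [Fintype.sum_equiv (finTwoArrowEquiv (Fin 3)) (fun y => φ (y 0) * ψ (y 1))
    (fun p => φ p.1 * ψ p.2) (fun y => rfl), Fintype.sum_prod_type, Finset.sum_mul_sum]

/-- first form: `a ⊗ b` -/
def NO7L_First (s : Matrix (Fin 2 → Fin 3) (Fin 2 → Fin 3) F) : Prop :=
  ∃ a b : Matrix (Fin 3) (Fin 3) F, ∀ x y, s x y = a (x 0) (y 0) * b (x 1) (y 1)

/-- second form: `(a ⊗ b)` followed by the swap -/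
def NO7L_Second (s : Matrix (Fin 2 → Fin 3) (Fin 2 → Fin 3) F) : Prop :=
  ∃ a b : Matrix (Fin 3) (Fin 3) F, ∀ x y, s x y = a (x 0) (y 1) * b (x 1) (y 0)

theorem NO7L_one_apply (x y : Fin 2 → Fin 3) :
    (1 : Matrix (Fin 2 → Fin 3) (Fin 2 → Fin 3) F) x y =
      (1 : Matrix (Fin 3) (Fin 3) F) (x 0) (y 0) * (1 : Matrix (Fin 3) (Fin 3) F) (x 1) (y 1) := by
  rw [Matrix.one_apply, Matrix.one_apply, Matrix.one_apply]
  by_cases h : x = y
  · subst h
    simp
  · rw [if_neg h]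
    by_cases h0 : x 0 = y 0
    · have h1 : ¬ x 1 = y 1 := fun h1 => h (funext (Fin.forall_fin_two.mpr ⟨h0, h1⟩))
      rw [if_neg h1, mul_zero]
    · rw [if_neg h0, zero_mul]

theorem NO7L_first_one : NO7L_First (1 : Matrix (Fin 2 → Fin 3) (Fin 2 → Fin 3) F) :=
  ⟨1, 1, NO7L_one_apply⟩

theorem NO7L_first_mul {s t : Matrix (Fin 2 → Fin 3) (Fin 2 → Fin 3) F} (hs : NO7L_First s)
    (ht : NO7L_First t) : NO7L_First (s * t) := by
  obtain ⟨a, b, hs⟩ := hs
  obtain ⟨c, d, ht⟩ := ht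
  refine ⟨a * c, b * d, fun x y => ?_⟩
  rw [Matrix.mul_apply, Matrix.mul_apply, Matrix.mul_apply,
    ← NO7L_sum2 (fun i => a (x 0) i * c i (y 0)) (fun j => b (x 1) j * d j (y 1))]
  refine Finset.sum_congr rfl (fun z _ => ?_)
  show s x z * t z y = (a (x 0) (z 0) * c (z 0) (y 0)) * (b (x 1) (z 1) * d (z 1) (y 1))
  rw [hs, ht]
  ring

theorem NO7L_second_mul {s t : Matrix (Fin 2 → Fin 3) (Fin 2 → Fin 3) F} (hs : NO7L_Second s)
    (ht : NO7L_Second t) : NO7L_First (s * t) := by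
  obtain ⟨a, b, hs⟩ := hs
  obtain ⟨c, d, ht⟩ := ht
  refine ⟨a * d, b * c, fun x y => ?_⟩
  rw [Matrix.mul_apply, Matrix.mul_apply, Matrix.mul_apply, mul_comm,
    ← NO7L_sum2 (fun i => b (x 1) i * c i (y 1)) (fun j => a (x 0) j * d j (y 0))]
  refine Finset.sum_congr rfl (fun z _ => ?_)
  show s x z * t z y = (b (x 1) (z 0) * c (z 0) (y 1)) * (a (x 0) (z 1) * d (z 1) (y 0))
  rw [hs, ht]
  ring

theorem NO7L_first_pow {s : Matrix (Fin 2 → Fin 3) (Fin 2 → Fin 3) F} (hs : NO7L_First s)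
    (k : ℕ) : NO7L_First (s ^ k) := by
  induction k with
  | zero => rw [pow_zero]; exact NO7L_first_one
  | succ k ih => rw [pow_succ]; exact NO7L_first_mul ih hs

/-- `y ↦ v ⊗ y` -/
def NO7L_tvR (v : Fin 3 → F) : (Fin 3 → F) →ₗ[F] ((Fin 2 → Fin 3) → F) where
  toFun y := fun x => v (x 0) * y (x 1)
  map_add' y y' := by
    funext x
    simp [mul_add]
  map_smul' c y := by
    funext x
    simp
    ring

/-- `u ↦ u ⊗ y` -/
def NO7L_tvL (y : Fin 3 → F) : (Fin 3 → F) →ₗ[F] ((Fin 2 → Fin 3) → F) where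
  toFun u := fun x => u (x 0) * y (x 1)
  map_add' u u' := by
    funext x
    simp [add_mul]
  map_smul' c u := by
    funext x
    simp
    ring

theorem NO7L_first_mulVec {s : Matrix (Fin 2 → Fin 3) (Fin 2 → Fin 3) F}
    {a b : Matrix (Fin 3) (Fin 3) F} (hs : ∀ x y, s x y = a (x 0) (y 0) * b (x 1) (y 1))
    (u v : Fin 3 → F) (x : Fin 2 → Fin 3) :
    (s *ᵥ (fun z : Fin 2 → Fin 3 => u (z 0) * v (z 1))) x = (a *ᵥ u) (x 0) * (b *ᵥ v) (x 1) := by
  show ∑ y : Fin 2 → Fin 3, s x y * (u (y 0) * v (y 1)) =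
    (∑ i, a (x 0) i * u i) * (∑ j, b (x 1) j * v j)
  rw [← NO7L_sum2 (fun i => a (x 0) i * u i) (fun j => b (x 1) j * v j)]
  refine Finset.sum_congr rfl (fun z _ => ?_)
  show s x z * (u (z 0) * v (z 1)) = (a (x 0) (z 0) * u (z 0)) * (b (x 1) (z 1) * v (z 1))
  rw [hs]
  ring

theorem NO7L_rank_ge (M : Matrix (Fin 2 → Fin 3) (Fin 2 → Fin 3) F)
    (T : (Fin 3 → F) →ₗ[F] ((Fin 2 → Fin 3) → F)) (hinj : ∀ y, M *ᵥ T y = 0 → y = 0) :
    3 ≤ M.rank := by
  have hL : Function.Injective (M.mulVecLin ∘ₗ T) := by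
    rw [injective_iff_map_eq_zero]
    intro y hy
    exact hinj y hy
  have h1 : LinearMap.range (M.mulVecLin ∘ₗ T) ≤ LinearMap.range M.mulVecLin :=
    LinearMap.range_comp_le_range _ _
  have h2 := Submodule.finrank_mono h1
  rw [LinearMap.finrank_range_of_inj hL, Module.finrank_fin_fun] at h2
  exact h2

theorem NO7L_rank3 (s : Matrix (Fin 2 → Fin 3) (Fin 2 → Fin 3) F)
    (a b : Matrix (Fin 3) (Fin 3) F) (hs : ∀ x y, s x y = a (x 0) (y 0) * b (x 1) (y 1))
    (hs1 : s ≠ 1) : 3 ≤ (s - 1).rank := by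
  by_cases hli : ∃ v : Fin 3 → F, LinearIndependent F ![v, Matrix.toLin' a v]
  · obtain ⟨v, hv⟩ := hli
    apply NO7L_rank_ge (s - 1) (NO7L_tvR v)
    intro y hy
    by_contra hy0
    obtain ⟨j, hj⟩ : ∃ j, y j ≠ 0 := by
      by_contra hcon
      push Not at hcon
      exact hy0 (funext hcon)
    rw [Matrix.sub_mulVec, Matrix.one_mulVec, sub_eq_zero] at hy
    have key : ∀ i, (a *ᵥ v) i * (b *ᵥ y) j = v i * y j := by
      intro i
      have h1 := congrFun hy (![i, j])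
      have h2 := NO7L_first_mulVec hs v y (![i, j])
      rw [show (NO7L_tvR v y : (Fin 2 → Fin 3) → F) =
        (fun z : Fin 2 → Fin 3 => v (z 0) * y (z 1)) from rfl] at h1
      rw [h2] at h1
      simpa using h1
    have h3 := (LinearIndependent.pair_iff.mp hv) (y j) (-(b *ᵥ y) j) (by
      funext i
      have := key i
      simp only [Matrix.toLin'_apply, Pi.add_apply, Pi.smul_apply, smul_eq_mul, Pi.zero_apply]
      linear_combination -this)
    exact hj h3.1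
  · push Not at hli
    obtain ⟨α, hα⟩ := LinearMap.exists_eq_smul_id_of_forall_notLinearIndependent hli
    have ha : a = α • (1 : Matrix (Fin 3) (Fin 3) F) := by
      apply Matrix.toLin'.injective
      rw [hα, map_smul, Matrix.toLin'_one]
      rfl
    have hs' : ∀ x y, s x y =
        (1 : Matrix (Fin 3) (Fin 3) F) (x 0) (y 0) * (α • b) (x 1) (y 1) := by
      intro x y
      rw [hs, ha, Matrix.smul_apply, Matrix.smul_apply, smul_eq_mul, smul_eq_mul]
      ring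
    have hb1 : α • b ≠ 1 := by
      intro h1
      apply hs1
      ext x y
      rw [hs', h1, ← NO7L_one_apply]
    obtain ⟨y₀, hy₀⟩ : ∃ y₀ : Fin 3 → F, (α • b) *ᵥ y₀ ≠ y₀ := by
      by_contra hcon
      push Not at hcon
      apply hb1
      apply Matrix.toLin'.injective
      apply LinearMap.ext
      intro y
      rw [Matrix.toLin'_apply, hcon y, Matrix.toLin'_one]
      rfl
    obtain ⟨j, hj⟩ : ∃ j, ((α • b) *ᵥ y₀) j ≠ y₀ j := by
      by_contra hcon
      push Not at hcon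
      exact hy₀ (funext hcon)
    apply NO7L_rank_ge (s - 1) (NO7L_tvL y₀)
    intro u hu
    rw [Matrix.sub_mulVec, Matrix.one_mulVec, sub_eq_zero] at hu
    funext i
    have h1 := congrFun hu (![i, j])
    have h2 := NO7L_first_mulVec hs' u y₀ (![i, j])
    rw [show (NO7L_tvL y₀ u : (Fin 2 → Fin 3) → F) =
      (fun z : Fin 2 → Fin 3 => u (z 0) * y₀ (z 1)) from rfl] at h1
    rw [h2, Matrix.one_mulVec] at h1
    have h3 : u i * (((α • b) *ᵥ y₀) j - y₀ j) = 0 := by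
      have h4 : u i * ((α • b) *ᵥ y₀) j = u i * y₀ j := by simpa using h1
      rw [mul_sub, h4, sub_self]
    rcases mul_eq_zero.mp h3 with h | h
    · exact h
    · exact absurd (sub_eq_zero.mp h) hj

variable {κ : Type} [Fintype κ] [DecidableEq κ]

theorem NO7L (e : κ ≃ (Fin 2 → Fin 3)) (P : GL κ F) (g : GL κ F) (hg1 : g ≠ 1)
    (hrk : (g.1 - 1).rank ≤ 2) (p : ℕ) (hp : Odd p) (hgp : g ^ p = 1)
    (hg : g ∈ tensorWreathSubgroup 3 2 e P)
    (htws : ∀ s : GL (Fin 2 → Fin 3) F, s ∈ tensorWreathStandard 3 2 F →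
      ∃ a b : GL (Fin 3) F,
        (∀ x y : Fin 2 → Fin 3, s.1 x y = a.1 (x 0) (y 0) * b.1 (x 1) (y 1)) ∨
        (∀ x y : Fin 2 → Fin 3, s.1 x y = a.1 (x 0) (y 1) * b.1 (x 1) (y 0))) : False := by
  obtain ⟨s, hs, hgs⟩ : ∃ s ∈ tensorWreathStandard 3 2 F,
      g = P * glReindex e.symm s * P⁻¹ := by
    obtain ⟨_, ⟨s, hs, rfl⟩, rfl⟩ := hg
    exact ⟨s, hs, rfl⟩
  have hs1 : s ≠ 1 := by
    intro h
    apply hg1
    rw [hgs, h, map_one, mul_one, mul_inv_cancel]
  have hsp : s ^ p = 1 := by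
    have h1 : P * glReindex e.symm (s ^ p) * P⁻¹ = 1 := by
      rw [map_pow, ← conj_pow, ← hgs, hgp]
    have h2 : glReindex e.symm (s ^ p) = 1 := by
      have h3 := congrArg (fun x => P⁻¹ * x * P) h1
      simpa [mul_assoc] using h3
    exact (glReindex e.symm).injective (by rw [h2, map_one])
  -- the rank
  have hrk' : (s.1 - 1).rank ≤ 2 := by
    have hval : (glReindex e.symm s : GL κ F).1 =
        Matrix.reindexAlgEquiv F F e.symm s.1 := rfl
    have h1 : g.1 - 1 = P.1 * Matrix.reindexAlgEquiv F F e.symm (s.1 - 1) * (P⁻¹).1 := by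
      rw [hgs, Units.val_mul, Units.val_mul, hval, map_sub, map_one, Matrix.mul_sub,
        Matrix.sub_mul, Matrix.mul_one, ← Units.val_mul, mul_inv_cancel, Units.val_one]
    rw [h1, Matrix.rank_mul_eq_left_of_isUnit_det _ _
        ((Matrix.isUnit_iff_isUnit_det _).mp (P⁻¹).isUnit),
      Matrix.rank_mul_eq_right_of_isUnit_det _ _
        ((Matrix.isUnit_iff_isUnit_det _).mp P.isUnit),
      Matrix.coe_reindexAlgEquiv, Matrix.rank_reindex] at hrk
    exact hrk
  -- the first form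
  have hfirst : NO7L_First s.1 := by
    obtain ⟨a, b, h | h⟩ := htws s hs
    · exact ⟨a.1, b.1, h⟩
    · have h2 : NO7L_Second s.1 := ⟨a.1, b.1, h⟩
      obtain ⟨k, hk⟩ := hp
      have h3 : s = (s * s) ^ (k + 1) := by
        rw [← pow_two, ← pow_mul]
        have h4 : 2 * (k + 1) = p + 1 := by omega
        rw [h4, pow_succ, hsp, one_mul]
      have h5 : s.1 = (s.1 * s.1) ^ (k + 1) := by
        conv_lhs => rw [h3]
        rw [Units.val_pow_eq_pow_val, Units.val_mul]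
      rw [h5]
      exact NO7L_first_pow (NO7L_second_mul h2 h2) (k + 1)
  obtain ⟨a, b, hab⟩ := hfirst
  have hs1' : s.1 ≠ 1 := fun h => hs1 (Units.ext h)
  have h3 := NO7L_rank3 s.1 a b hab hs1'
  omega

end Cfsg.Agent.Lib.Helper44.O9
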