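import Mathlib
import Cfsg.Agent.Lib.Helper48.DCA
import Cfsg.Prelude.Def_ChevG2
import Cfsg.Prelude.Def_ChevB2
import Cfsg.Prelude.Def_ChevD4
import Cfsg.Prelude.Def_ChevF4
import Cfsg.Prelude.Def_ChevE6
import Cfsg.Prelude.Def_ChevE7
import Cfsg.Prelude.Def_ChevE8

/-!
# Project DC (S2318, helper48), piece XPOS

The root subgroup of a fundamental root lies in `U`.  (The positivity of the fundamental roots
is checked here directly on the tables, so that this file has light imports.)
-/

set_option autoImplicit false

namespace Cfsg.Agent.Lib.Helper48.DC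

open Cfsg Cfsg.Lie

theorem xpos_G2 : (List.range chevG2.rank).all
    (fun i => decide (chevG2.IsPosRoot (chevG2.simple i))) = true := by decide +kernel

theorem xpos_B2 : (List.range chevB2.rank).all
    (fun i => decide (chevB2.IsPosRoot (chevB2.simple i))) = true := by decide +kernel

theorem xpos_D4 : (List.range chevD4.rank).all
    (fun i => decide (chevD4.IsPosRoot (chevD4.simple i))) = true := by decide +kernel

theorem xpos_F4 : (List.range chevF4.rank).all
    (fun i => decide (chevF4.IsPosRoot (chevF4.simple i))) = true := by decide +kernel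

theorem xpos_E6 : (List.range chevE6.rank).all
    (fun i => decide (chevE6.IsPosRoot (chevE6.simple i))) = true := by decide +kernel

theorem xpos_E7 : (List.range chevE7.rank).all
    (fun i => decide (chevE7.IsPosRoot (chevE7.simple i))) = true := by decide +kernel

theorem xpos_E8 : (List.range chevE8.rank).all
    (fun i => decide (chevE8.IsPosRoot (chevE8.simple i))) = true := by decide +kernel

theorem xpos_all (D : ChevalleyDatum)
    (hD : D ∈ [chevG2, chevB2, chevD4, chevF4, chevE6, chevE7, chevE8]) (i : ℕ) (hi : i < D.rank) :
    D.IsPosRoot (D.simple i) := by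
  simp only [List.mem_cons, List.not_mem_nil, or_false] at hD
  rcases hD with rfl | rfl | rfl | rfl | rfl | rfl | rfl
  · have hps := xpos_G2
    simp only [List.all_eq_true, List.mem_range, decide_eq_true_eq] at hps
    exact hps i hi
  · have hps := xpos_B2
    simp only [List.all_eq_true, List.mem_range, decide_eq_true_eq] at hps
    exact hps i hi
  · have hps := xpos_D4
    simp only [List.all_eq_true, List.mem_range, decide_eq_true_eq] at hps
    exact hps i hi
  · have hps := xpos_F4
    simp only [List.all_eq_true, List.mem_range, decide_eq_true_eq] at hps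
    exact hps i hi
  · have hps := xpos_E6
    simp only [List.all_eq_true, List.mem_range, decide_eq_true_eq] at hps
    exact hps i hi
  · have hps := xpos_E7
    simp only [List.all_eq_true, List.mem_range, decide_eq_true_eq] at hps
    exact hps i hi
  · have hps := xpos_E8
    simp only [List.all_eq_true, List.mem_range, decide_eq_true_eq] at hps
    exact hps i hi

variable {F : Type*} [Field F] [Fintype F]

/-- XPOS -/
theorem Xg_le_Ug (D : ChevalleyDatum)
    (hD : D ∈ [chevG2, chevB2, chevD4, chevF4, chevE6, chevE7, chevE8]) (i : ℕ) (hi : i < D.rank) :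
    Xg F D i ≤ Ug F D := by
  have hpos : D.IsPosRoot (D.simple i) := xpos_all D hD i hi
  have hle : D.rootSubgroup F (D.simple i) ≤ D.posUnipotent F := by
    unfold ChevalleyDatum.rootSubgroup ChevalleyDatum.posUnipotent
    apply Subgroup.closure_mono
    rintro g ⟨t, ht⟩
    exact ⟨D.simple i, t, hpos, ht⟩
  intro x hx
  rw [Subgroup.mem_subgroupOf] at hx ⊢
  exact hle hx

end Cfsg.Agent.Lib.Helper48.DC
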