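import Mathlib

/-!
# S2646 project (helper51), piece GUC-FIBER

Counting the preimage of a set under a surjective additive homomorphism of finite groups.
-/

set_option autoImplicit false

namespace Cfsg.Agent.Lib.Helper76.GUCFIBER

theorem card_preimage_eq {A B : Type*} [AddCommGroup A] [AddCommGroup B] [Finite A] [Finite B]
    (f : A →+ B) (hf : Function.Surjective f) (T : Set B) :
    Nat.card {a : A // f a ∈ T} = Nat.card T * Nat.card f.ker := by
  rw [← Nat.card_prod]
  refine Nat.card_congr ?_
  exact
    { toFun := fun a => (⟨f a.1, a.2⟩, ⟨a.1 - Function.surjInv hf (f a.1), by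
          rw [AddMonoidHom.mem_ker, map_sub, Function.surjInv_eq hf, sub_self]⟩)
      invFun := fun x => ⟨Function.surjInv hf x.1.1 + x.2.1, by
          rw [map_add, Function.surjInv_eq hf, AddMonoidHom.mem_ker.mp x.2.2, add_zero]
          exact x.1.2⟩
      left_inv := fun a => by
          apply Subtype.ext
          simp
      right_inv := fun x => by
          have h1 : f (Function.surjInv hf x.1.1 + x.2.1) = x.1.1 := by
            rw [map_add, Function.surjInv_eq hf, AddMonoidHom.mem_ker.mp x.2.2, add_zero]
          apply Prod.ext
          · apply Subtype.ext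
            exact h1
          · apply Subtype.ext
            simp only
            rw [h1]
            abel }

theorem card_preimage_mul {A B : Type*} [AddCommGroup A] [AddCommGroup B] [Finite A] [Finite B]
    (f : A →+ B) (hf : Function.Surjective f) (T : Set B) :
    Nat.card {a : A // f a ∈ T} * Nat.card B = Nat.card A * Nat.card T := by
  have h1 := card_preimage_eq f hf T
  have h2 := card_preimage_eq f hf Set.univ
  have h3 : Nat.card {a : A // f a ∈ (Set.univ : Set B)} = Nat.card A :=
    Nat.card_congr (Equiv.subtypeUnivEquiv (fun a => Set.mem_univ _))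
  have h4 : Nat.card (Set.univ : Set B) = Nat.card B := Nat.card_congr (Equiv.Set.univ B)
  rw [h3, h4] at h2
  rw [h1, h2]
  ring

end Cfsg.Agent.Lib.Helper76.GUCFIBER
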