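import Mathlib

/-!
# S2646 project (helper51), piece GUC-FIX

A conjugate-semilinear additive involution on a finite module over the field with `q ^ 2`
elements has `|Fix| ^ 2 = |W|`.
-/

set_option autoImplicit false

namespace Cfsg.Agent.Lib.Helper76.GUCFIX

theorem exists_pow_ne {K : Type*} [Field K] [Fintype K] {q : ℕ} (hK : Fintype.card K = q ^ 2) :
    ∃ l : K, l ^ q ≠ l := by
  classical
  by_contra hcon
  push Not at hcon
  have hq2 : 2 ≤ q := by
    have h1 : 1 < Fintype.card K := Fintype.one_lt_card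
    rw [hK] at h1
    by_contra h
    have h2 : q = 0 ∨ q = 1 := by omega
    rcases h2 with rfl | rfl <;> simp at h1
  have hne : (Polynomial.X ^ q - Polynomial.X : Polynomial K) ≠ 0 :=
    FiniteField.X_pow_card_sub_X_ne_zero K (by omega)
  have hdeg : (Polynomial.X ^ q - Polynomial.X : Polynomial K).natDegree = q :=
    FiniteField.X_pow_card_sub_X_natDegree_eq K (by omega)
  have hroots : ∀ x : K, x ∈ (Polynomial.X ^ q - Polynomial.X : Polynomial K).roots := by
    intro x
    rw [Polynomial.mem_roots hne]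
    simp [hcon x]
  have hcard : Fintype.card K ≤ q := by
    calc Fintype.card K = (Finset.univ : Finset K).card := Finset.card_univ.symm
      _ ≤ (Polynomial.X ^ q - Polynomial.X : Polynomial K).roots.toFinset.card :=
          Finset.card_le_card (fun x _ => Multiset.mem_toFinset.mpr (hroots x))
      _ ≤ Multiset.card (Polynomial.X ^ q - Polynomial.X : Polynomial K).roots :=
          Multiset.toFinset_card_le _
      _ ≤ q :=
          (Polynomial.card_roots' (Polynomial.X ^ q - Polynomial.X : Polynomial K)).trans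
            (le_of_eq hdeg)
  rw [hK] at hcard
  nlinarith

theorem card_fixed_sq {K : Type*} [Field K] [Fintype K] {q : ℕ} (hK : Fintype.card K = q ^ 2)
    {W : Type*} [AddCommGroup W] [Module K W] [Finite W] (θ : W →+ W)
    (hθ2 : ∀ w, θ (θ w) = w) (hθs : ∀ (c : K) (w : W), θ (c • w) = c ^ q • θ w) :
    Nat.card {w : W // θ w = w} ^ 2 = Nat.card W := by
  by_cases hW : Subsingleton W
  · have h1 : Nat.card W = 1 := Nat.card_eq_one_iff_unique.mpr ⟨hW, ⟨0⟩⟩
    have h2 : Nat.card {w : W // θ w = w} = 1 := by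
      rw [Nat.card_eq_one_iff_unique]
      exact ⟨inferInstance, ⟨⟨0, map_zero θ⟩⟩⟩
    rw [h1, h2]
    norm_num
  · rw [not_subsingleton_iff_nontrivial] at hW
    obtain ⟨w0, hw0⟩ := exists_ne (0 : W)
    have hθw0 : θ w0 ≠ 0 := by
      intro h
      apply hw0
      rw [← hθ2 w0, h, map_zero]
    have hq0 : q ≠ 0 := by
      rintro rfl
      have h1 : 1 < Fintype.card K := Fintype.one_lt_card
      rw [hK] at h1
      simp at h1
    have hadd : ∀ c d : K, (c + d) ^ q = c ^ q + d ^ q := by
      intro c d
      have h1 := hθs (c + d) w0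
      rw [add_smul, map_add, hθs, hθs, ← add_smul] at h1
      have h2 : ((c + d) ^ q - (c ^ q + d ^ q)) • θ w0 = 0 := by
        rw [sub_smul, h1, sub_self]
      rcases smul_eq_zero.mp h2 with h | h
      · exact sub_eq_zero.mp h
      · exact absurd h hθw0
    have hneg : ∀ c : K, (-c) ^ q = - c ^ q := by
      intro c
      have h1 := hadd c (-c)
      rw [add_neg_cancel, zero_pow hq0] at h1
      exact eq_neg_of_add_eq_zero_right h1.symm
    have hpp : ∀ c : K, (c ^ q) ^ q = c := by
      intro c
      rw [← pow_mul, ← sq, ← hK]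
      exact FiniteField.pow_card c
    obtain ⟨l, hl⟩ := exists_pow_ne hK
    obtain ⟨μ, hμ⟩ : ∃ μ : K, μ = l - l ^ q := ⟨_, rfl⟩
    have hμ0 : μ ≠ 0 := by
      rw [hμ]
      exact sub_ne_zero.mpr (Ne.symm hl)
    have hμq : μ ^ q = -μ := by
      rw [hμ, sub_eq_add_neg, hadd, hneg, hpp]
      ring
    have hμi : (μ⁻¹) ^ q = -μ⁻¹ := by
      rw [inv_pow, hμq, inv_neg]
    have hb : ∀ w : W, θ (μ⁻¹ • (w - θ w)) = μ⁻¹ • (w - θ w) := by
      intro w
      rw [hθs, hμi, map_sub, hθ2, neg_smul, ← smul_neg, neg_sub]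
    have hcancel : ∀ w : W, (l - l ^ q) • μ⁻¹ • (w - θ w) = w - θ w := by
      intro w
      rw [← hμ, smul_smul, mul_inv_cancel₀ hμ0, one_smul]
    have ha : ∀ w : W, θ (w - l • μ⁻¹ • (w - θ w)) = w - l • μ⁻¹ • (w - θ w) := by
      intro w
      rw [map_sub, hθs, hb]
      have h1 := hcancel w
      rw [sub_smul] at h1
      linear_combination (norm := module) h1
    rw [sq, ← Nat.card_prod]
    refine (Nat.card_congr ?_).symm
    exact
      { toFun := fun w => (⟨w - l • μ⁻¹ • (w - θ w), ha w⟩, ⟨μ⁻¹ • (w - θ w), hb w⟩)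
        invFun := fun x => x.1.1 + l • x.2.1
        left_inv := fun w => by
          simp only
          abel
        right_inv := fun x => by
          have hx1 : θ x.1.1 = x.1.1 := x.1.2
          have hx2 : θ x.2.1 = x.2.1 := x.2.2
          have h1 : x.1.1 + l • x.2.1 - θ (x.1.1 + l • x.2.1) = μ • x.2.1 := by
            rw [map_add, hθs, hx1, hx2, hμ, sub_smul]
            abel
          have h2 : μ⁻¹ • (x.1.1 + l • x.2.1 - θ (x.1.1 + l • x.2.1)) = x.2.1 := by
            rw [h1, smul_smul, inv_mul_cancel₀ hμ0, one_smul]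
          apply Prod.ext
          · apply Subtype.ext
            simp only
            rw [h2]
            abel
          · apply Subtype.ext
            exact h2 }

end Cfsg.Agent.Lib.Helper76.GUCFIX
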