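import Mathlib
import Cfsg.Agent.Lib.Helper18.CTDefs

/-! S4699 piece CT-TAU3 (project CT of helper18; job 4768, proved by helper76):
the range of `tau` is the range of `(ρ x - 1) ^ e`, `e` the size of the orbit. -/

set_option autoImplicit false
set_option linter.unusedSectionVars false

namespace Cfsg.Agent.Lib.Helper18.CT

variable {G : Type*} [Group G] {F : Type*} [Field F] {V : Type*} [AddCommGroup V] [Module F V]

/-- single factor: `U - 1` maps `range (y^k)` onto `range (y^(k+1))`, `y = X - 1`, when `U`, `X`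
are powers of each other -/
theorem tau3_factor (X U : Module.End F V) (a b : ℕ) (hU : U = X ^ a) (hX : X = U ^ b) (k : ℕ) :
    Submodule.map (U - 1) (LinearMap.range ((X - 1) ^ k)) =
      LinearMap.range ((X - 1) ^ (k + 1)) := by
  have hXU : Commute X U := by rw [hU]; exact (Commute.refl X).pow_right a
  have hyU : Commute (X - 1) (U - 1) :=
    (hXU.sub_left (Commute.one_left U)).sub_right (Commute.one_right _)
  have h1 : U - 1 = (X - 1) * ∑ i ∈ Finset.range a, X ^ i := by rw [hU, mul_geom_sum]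
  have h2 : X - 1 = (U - 1) * ∑ i ∈ Finset.range b, U ^ i := by rw [mul_geom_sum, ← hX]
  apply le_antisymm
  · rintro w ⟨z, ⟨v, rfl⟩, rfl⟩
    refine ⟨(∑ i ∈ Finset.range a, X ^ i) v, ?_⟩
    have hS : Commute (∑ i ∈ Finset.range a, X ^ i) ((X - 1) ^ k) := by
      apply Commute.pow_right
      apply Commute.sum_left
      intro i _
      exact ((Commute.refl X).pow_left i).sub_right (Commute.one_right _)
    have e : (X - 1) ^ (k + 1) * (∑ i ∈ Finset.range a, X ^ i) = (U - 1) * (X - 1) ^ k := by
      rw [h1, pow_succ', mul_assoc, mul_assoc, hS.eq]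
    have e' := congrArg (fun T : Module.End F V => T v) e
    simpa [Module.End.mul_apply] using e'
  · rintro w ⟨v, rfl⟩
    refine ⟨((X - 1) ^ k) ((∑ i ∈ Finset.range b, U ^ i) v), ⟨_, rfl⟩, ?_⟩
    have e : (U - 1) * ((X - 1) ^ k * ∑ i ∈ Finset.range b, U ^ i) = (X - 1) ^ (k + 1) := by
      rw [← mul_assoc, ← (hyU.pow_left k).eq, mul_assoc, ← h2, ← pow_succ]
    have e' := congrArg (fun T : Module.End F V => T v) e
    simpa [Module.End.mul_apply] using e'

/-- members of the orbit and `x` are powers of each other -/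
theorem tau3_powers [Finite G] (P : Subgroup G) (x : G) (hx : Subgroup.zpowers x = P) (u : G)
    (hu : u ∈ orbN P x) : ∃ a b : ℕ, u = x ^ a ∧ x = u ^ b := by
  unfold orbN at hu
  rw [Set.Finite.mem_toFinset] at hu
  obtain ⟨g, hg, rfl⟩ := hu
  have hxP : x ∈ P := by rw [← hx]; exact Subgroup.mem_zpowers x
  have h1 : g * x * g⁻¹ ∈ Subgroup.zpowers x := by
    rw [hx]
    exact ((Subgroup.mem_normalizer_iff.mp hg) x).1 hxP
  have hg' : g⁻¹ ∈ Subgroup.normalizer (P : Set G) := Subgroup.inv_mem _ hg
  have h2 : g⁻¹ * x * g ∈ Subgroup.zpowers x := by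
    rw [hx]
    have h := ((Subgroup.mem_normalizer_iff.mp hg') x).1 hxP
    simpa using h
  have h3 : x ∈ Subgroup.zpowers (g * x * g⁻¹) := by
    obtain ⟨j, hj⟩ := Subgroup.mem_zpowers_iff.mp h2
    rw [Subgroup.mem_zpowers_iff]
    refine ⟨j, ?_⟩
    rw [conj_zpow, hj]
    group
  rw [← mem_powers_iff_mem_zpowers] at h1 h3
  obtain ⟨a, ha⟩ := (Submonoid.mem_powers_iff _ _).mp h1
  obtain ⟨b, hb⟩ := (Submonoid.mem_powers_iff _ _).mp h3
  exact ⟨a, b, ha.symm, hb.symm⟩

/-- the product over a list of mutual powers of `x` -/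
theorem tau3_list (ρ : Representation F G V) (x : G) (l : List G)
    (hl : ∀ u ∈ l, ∃ a b : ℕ, u = x ^ a ∧ x = u ^ b) :
    LinearMap.range ((l.map (fun u => ρ u - 1)).prod) =
      LinearMap.range ((ρ x - 1) ^ l.length) := by
  induction l with
  | nil => simp
  | cons u l ih =>
    obtain ⟨a, b, hua, hxb⟩ := hl u (List.mem_cons_self ..)
    have ih' := ih (fun v hv => hl v (List.mem_cons_of_mem _ hv))
    rw [List.map_cons, List.prod_cons, Module.End.mul_eq_comp, LinearMap.range_comp, ih',
      List.length_cons]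
    exact tau3_factor (ρ x) (ρ u) a b (by rw [hua, map_pow]) (by rw [← map_pow, ← hxb]) l.length

-- piece TAU3
theorem tau_range [Finite G] (ρ : Representation F G V) (P : Subgroup G) (x : G)
    (hx : Subgroup.zpowers x = P) :
    LinearMap.range (tau ρ P x) = LinearMap.range ((ρ x - 1) ^ (orbN P x).card) := by
  unfold tau
  rw [tau3_list ρ x (orbN P x).toList
    (fun u hu => tau3_powers P x hx u (Finset.mem_toList.mp hu)), Finset.length_toList]

end Cfsg.Agent.Lib.Helper18.CT
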