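import Mathlib
import Cfsg.Prelude.Def_GeometricClasses
import Cfsg.Prelude.Def_ClassicalGeometry
import Cfsg.Agent.Lib.Helper98.F75Defs

/-!
# S5975 project (helper98), piece F75-LDATA

A field subalgebra of a matrix algebra has a field model.
-/

set_option autoImplicit false

universe u

namespace Cfsg.Agent.Lib.Helper98.F75

open Matrix Polynomial

theorem exists_field_model {F : Type u} [Field F] [Fintype F] {ι : Type} [Fintype ι]
    [DecidableEq ι] {k : ℕ} (hk : k.Prime) (K : Subalgebra F (Matrix ι ι F))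
    (hK : Cfsg.Geo.IsFieldSubalgebra k K) :
    ∃ (L : Type u) (_ : Field L) (_ : Fintype L) (_ : Algebra F L) (ρ : L →ₐ[F] Matrix ι ι F),
      (∀ a : Matrix ι ι F, a ∈ K ↔ ∃ c : L, ρ c = a) ∧ Module.finrank F L = k := by
  classical
  have hpos : 0 < Module.finrank F K := by
    rw [hK.finrank_eq]
    exact hk.pos
  have hnt : Nontrivial ↥K := Module.nontrivial_of_finrank_pos (R := F) hpos
  have hfield : IsField ↥K :=
    { exists_pair_ne := hnt.exists_pair_ne
      mul_comm := fun a b => Subtype.ext (hK.comm a.1 a.2 b.1 b.2)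
      mul_inv_cancel := by
        intro a ha
        have ha' : (a : Matrix ι ι F) ≠ 0 := fun h => ha (Subtype.ext h)
        obtain ⟨y, hy, hxy⟩ := hK.inv a.1 a.2 ha'
        exact ⟨⟨y, hy⟩, Subtype.ext hxy⟩ }
  refine ⟨↥K, hfield.toField, Fintype.ofFinite ↥K, K.algebra, K.val, ?_, ?_⟩
  · intro a
    constructor
    · intro ha
      exact ⟨⟨a, ha⟩, rfl⟩
    · rintro ⟨c, rfl⟩
      exact c.2
  · exact hK.finrank_eq

end Cfsg.Agent.Lib.Helper98.F75
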