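import Cfsg.Agent.Lib.Helper98.H90Defs

/-! S5990 piece H90-AR90EF (project H74 batch 2 of helper98; job 4789, proved by helper76):
arithmetic, `i` even, `i ≤ m`: `ModelH (-1) (-1) i d m ⇒ Cond90 i d m`. -/

set_option autoImplicit false
set_option linter.unusedVariables false

namespace Cfsg.Agent.Lib.Helper98.H74

open Cfsg.Agent.Lib.Helper47 Cfsg.Agent.Lib.Helper98.T73 Module Polynomial

/-- AR90EF -/
theorem ar90_even_fwd (i d m : ℕ) (hi : 1 ≤ i) (heven : Even i) (hd : 4 ≤ d) (hm : 2 ≤ m)
    (hme : Even m) (hmd : m + 2 ≤ 2 * d) (him : i ≤ m) (hM : ModelH (-1) (-1) i d m) :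
    Cond90 i d m := by
  have hsgn : ∀ A : ℕ, sgn i A = (-1 : ℤ) ^ A := fun A => by simp [sgn, heven]
  have hdiv := Nat.div_add_mod (2 * d) i
  have hRlt : 2 * d % i < i := Nat.mod_lt _ hi
  have hD1 : 1 ≤ 2 * d / i := by
    rw [Nat.one_le_div_iff hi]
    omega
  obtain ⟨D, hDdef⟩ : ∃ D, D = 2 * d / i := ⟨_, rfl⟩
  obtain ⟨R, hRdef⟩ : ∃ R, R = 2 * d % i := ⟨_, rfl⟩
  rw [← hDdef, ← hRdef] at hdiv
  rw [← hRdef] at hRlt
  rw [← hDdef] at hD1
  have hvalid : Valid (-1) i d D ∨ (R = 0 ∧ Even D) := by
    by_cases hc : R = 0 ∧ Even D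
    · exact Or.inr hc
    · left
      refine ⟨hD1, ?_, fun ho => absurd heven (Nat.not_even_iff_odd.mpr ho), ?_⟩
      · rw [← hdiv]
        exact Nat.le_add_right _ _
      · intro h2
        have hR0 : R = 0 := by omega
        have hDodd : Odd D := by
          rcases Nat.even_or_odd D with h | h
          · exact absurd ⟨hR0, h⟩ hc
          · exact h
        rw [hsgn, hDodd.neg_one_pow]
  unfold Cond90
  rw [if_pos heven, ← hDdef, ← hRdef]
  rcases hvalid with hv | ⟨hR0, hDe⟩
  swap
  · left
    exact ⟨hR0, Or.inl hDe⟩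
  obtain ⟨j, w, hjA, -, hmeq, hw, hw0, hwR⟩ := hM D hv
  have hwR' : w ≤ R := by omega
  have hwlt : w < i := by omega
  have hmod : m % i = w := by
    rw [hmeq, Nat.mul_add_mod]
    exact Nat.mod_eq_of_lt hwlt
  have hdivm : m / i = j := by
    rw [hmeq, Nat.mul_add_div hi, Nat.div_eq_of_lt hwlt, add_zero]
  rw [hmod, hdivm]
  rw [hsgn] at hw0
  rw [hsgn, hsgn] at hwR
  by_cases hR0 : R = 0
  · left
    refine ⟨hR0, ?_⟩
    have hw00 : w = 0 := by omega
    right
    refine ⟨hw00, ?_⟩
    have h1 := hw0 hw00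
    rcases Nat.even_or_odd j with h | h
    · rw [h.neg_one_pow] at h1
      norm_num at h1
    · exact h
  · right
    refine ⟨by omega, him, ?_⟩
    by_cases hw00 : w = 0
    · right
      left
      refine ⟨hw00, ?_⟩
      have h1 := hw0 hw00
      rcases Nat.even_or_odd j with h | h
      · rw [h.neg_one_pow] at h1
        norm_num at h1
      · exact h
    · by_cases hwlt' : w < R
      · left
        exact ⟨by omega, hwlt'⟩
      · right
        right
        have hwRe : w = R := by omega
        refine ⟨hwRe, ?_⟩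
        have hpar := hwR (by omega) (by omega)
        have e : 2 * d + m - 2 * R = i * (D + j) := by
          rw [mul_add]
          omega
        rw [e, Nat.mul_div_cancel_left _ hi, Nat.even_add]
        rcases Nat.even_or_odd j with h | h <;> rcases Nat.even_or_odd D with h' | h'
        · exact ⟨fun _ => h, fun _ => h'⟩
        · rw [h.neg_one_pow, h'.neg_one_pow] at hpar
          norm_num at hpar
        · rw [h.neg_one_pow, h'.neg_one_pow] at hpar
          norm_num at hpar
        · constructor
          · intro hD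
            exact absurd hD (Nat.not_even_iff_odd.mpr h')
          · intro hj
            exact absurd hj (Nat.not_even_iff_odd.mpr h)

end Cfsg.Agent.Lib.Helper98.H74
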