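import Mathlib
import Cfsg.Agent.Lib.Helper78.JNDefs
import Cfsg.Agent.Lib.Helper82.JcOCPC
import Cfsg.Agent.Lib.Helper75.JcWF

/-! Project JN (helper78, S2944), piece TRW: the data of a `J`-component transported to a
subgroup `L ≤ N_G(W_K)` containing it. -/

set_option autoImplicit false

namespace Cfsg.Agent.Lib.Helper76.JN

open Cfsg.Agent.Lib.Helper78.JN Cfsg.Agent.Lib.Helper72.JL Cfsg.Agent.Lib.Helper72.SC
  Cfsg.Agent.Lib.Helper78.Jc
open scoped commutatorElement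

universe u

theorem trw : TrwStmt.{u} := by
  intro G _ _ T K L hJC hKL hLN
  obtain ⟨hodd, hKJ, h3, hSyl, hW4, hW2⟩ := hJC
  have hOK : Cfsg.pCoreOf 2 K ≤ K := Cfsg.Agent.Lib.Helper82.Jc.pc_le K
  have hKNO : K ≤ Subgroup.normalizer (Cfsg.pCoreOf 2 K : Set G) :=
    Cfsg.Agent.Lib.Helper82.Jc.pc_le_normalizer K
  have hO2 : IsPGroup 2 ↥(Cfsg.pCoreOf 2 K) := Cfsg.Agent.Lib.Helper82.Jc.pc_pgroup K
  have hWle : Cfsg.wOf K ≤ Cfsg.omegaCenterOf (Cfsg.pCoreOf 2 K) :=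
    Cfsg.Agent.Lib.Helper75.Jc.wf_le _ K
      (hKNO.trans (Cfsg.Agent.Lib.Helper82.Jc.oc_normalizer (Cfsg.pCoreOf 2 K)))
  have hWO : Cfsg.wOf K ≤ Cfsg.pCoreOf 2 K :=
    hWle.trans (Cfsg.Agent.Lib.Helper82.Jc.oc_le (Cfsg.pCoreOf 2 K))
  have hWL : Cfsg.wOf K ≤ L := hWO.trans (hOK.trans hKL)
  refine ⟨?_, ?_, ?_, ?_, ?_, ?_, ?_, ?_⟩
  · intro x hx
    rw [Subgroup.mem_subgroupOf] at hx ⊢
    exact hOK hx
  · intro k hk
    rw [Subgroup.mem_subgroupOf] at hk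
    rw [Subgroup.mem_normalizer_iff]
    intro x
    rw [Subgroup.mem_subgroupOf, Subgroup.mem_subgroupOf]
    have h := Subgroup.mem_normalizer_iff.mp (hKNO hk) (x : G)
    simpa using h
  · exact hO2.comap_subtype
  · rw [Subgroup.relIndex_subgroupOf hKL]
    exact h3
  · intro P hPK hP2
    have h1 : P.map L.subtype ≤ K := by
      rintro _ ⟨x, hx, rfl⟩
      exact hPK hx
    have h2 : IsPGroup 2 ↥(P.map L.subtype) := hP2.map L.subtype
    have h4 := Cfsg.Agent.Lib.Helper82.Jc.pc_two_le K h3 (P.map L.subtype) h1 h2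
    intro x hx
    rw [Subgroup.mem_subgroupOf]
    exact h4 ⟨x, hx, rfl⟩
  · constructor
    intro w hw g
    rw [Subgroup.mem_subgroupOf] at hw ⊢
    have h := (Subgroup.mem_normalizer_iff.mp (hLN g.2) (w : G)).mp hw
    simpa using h
  · rw [Nat.card_congr (Subgroup.subgroupOfEquivOfLe hWL).toEquiv]
    exact hW4
  · intro u hu huu hcen k hk
    rw [Subgroup.mem_subgroupOf] at hu hk ⊢
    have hu' : (u : G) ∈ Cfsg.omegaCenterOf (Cfsg.pCoreOf 2 K) := by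
      apply Cfsg.Agent.Lib.Helper82.Jc.oc_mem _ _ hu
      · intro o ho
        have h := hcen ⟨o, hKL (hOK ho)⟩ (by rw [Subgroup.mem_subgroupOf]; exact ho)
        exact congrArg Subtype.val h
      · exact congrArg Subtype.val huu
    have h := Subgroup.commutator_mem_commutator (H₁ := Cfsg.omegaCenterOf (Cfsg.pCoreOf 2 K))
      (H₂ := K) (inv_mem hu') hk
    have e : ((u⁻¹ * (k * u * k⁻¹) : ↥L) : G) = ⁅(u : G)⁻¹, (k : G)⁆ := by
      rw [commutatorElement_def]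
      simp [mul_assoc]
    rw [e]
    exact h

end Cfsg.Agent.Lib.Helper76.JN
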