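import Mathlib
import Cfsg.Agent.Lib.Helper72.PQDefs
import Cfsg.Agent.Lib.Helper12.Ward2

/-!
# S4306, piece PQ-INON: type I, `Q` nonabelian is contradictory
-/

set_option autoImplicit false

namespace Cfsg.Agent.Lib.Helper76.PQ

open Subgroup
open scoped commutatorElement
open Cfsg.Agent.Lib.Helper72.PQ
open Cfsg.Agent.Lib.Helper12.Ward

universe u

section Aux

variable {Γ : Type u} [Group Γ]

/-- For a commutator commuting with its first entry, powers pull into the first entry. -/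
theorem inon_comm_pow {y y' : Γ}
    (hc : (y * y' * y⁻¹ * y'⁻¹) * y = y * (y * y' * y⁻¹ * y'⁻¹)) (n : ℕ) :
    y ^ n * y' * (y ^ n)⁻¹ * y'⁻¹ = (y * y' * y⁻¹ * y'⁻¹) ^ n := by
  induction n with
  | zero => simp
  | succ n ih =>
    have hcn : (y * y' * y⁻¹ * y'⁻¹) ^ n * y = y * (y * y' * y⁻¹ * y'⁻¹) ^ n :=
      (Commute.pow_left (show Commute (y * y' * y⁻¹ * y'⁻¹) y from hc) n).eq
    have e : y ^ (n + 1) * y' * (y ^ (n + 1))⁻¹ * y'⁻¹
        = y * (y ^ n * y' * (y ^ n)⁻¹ * y'⁻¹) * (y' * y⁻¹ * y'⁻¹) := by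
      rw [pow_succ']; group
    rw [e, ih, ← hcn, pow_succ]
    simp only [mul_assoc]

/-- An element commuting with every element of `H` normalizes `H`. -/
theorem inon_nz_of_comm {H : Subgroup Γ} {g : Γ} (h : ∀ x ∈ H, g * x = x * g) :
    g ∈ normalizer (H : Set Γ) := by
  apply nz_of_conj_mem
  · intro x hx
    have e : g * x * g⁻¹ = x := by rw [h x hx]; group
    rw [e]; exact hx
  · intro x hx
    have e : g⁻¹ * x * g = x := by rw [mul_assoc, ← h x hx]; group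
    rw [e]; exact hx

end Aux

theorem inon (h1 : HHFStmt.{u}) (h2 : P6Stmt.{u}) (h3 : WExStmt.{u}) (h4 : WStabStmt.{u})
    (h5 : L1Stmt.{u}) (h6 : L2Stmt.{u}) (h7 : L3Stmt.{u}) (h8 : AStrStmt.{u}) :
    InonStmt.{u} := by
  intro Γ _ _ p ℓ r q s A F V Q R tw hI hnab
  obtain ⟨-, -, -, hL1d⟩ := h5 Γ p ℓ r q s A F V Q R tw
  obtain ⟨hL2a, hL2b, hL2c, -⟩ := h6 Γ p ℓ r q s A F V Q R tw
  obtain ⟨hL3a, hL3b⟩ := h7 Γ p ℓ r q s A F V Q R tw
  obtain ⟨⟨t₀, ht₀A, ht₀F⟩, hA2, hA3, -⟩ := h8 Γ p ℓ A F tw.frob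
  have hL1d' := hL1d hI
  -- Step 1: `C_Q(F) ≤ Z`
  have hCQF : ∀ u ∈ Q, (∀ a ∈ F, a * u = u * a) → u ∈ cz Q R := by
    intro u hu huF
    rw [mem_cz]
    refine ⟨hu, fun x hx => ?_⟩
    obtain ⟨n, hn, hxn⟩ := hL1d' x hx
    rw [mem_cz] at hn
    have hxnR : x * n ∈ R := R.mul_mem hx hn.1
    have e1 : (x * n) * u = u * (x * n) := tw.hnQR u hu (x * n) hxnR huF hxn
    have e2 : u * n = n * u := hn.2 u hu
    have e3 : x * u * n = u * x * n := by
      calc x * u * n = x * (u * n) := by rw [mul_assoc]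
        _ = x * (n * u) := by rw [e2]
        _ = (x * n) * u := by rw [mul_assoc]
        _ = u * (x * n) := e1
        _ = u * x * n := by rw [mul_assoc]
    exact mul_right_cancel e3
  have hZQ : cz Q R ≤ Q := fun z hz => (mem_cz.mp hz).1
  have hDZ : (⁅Q, Q⁆ : Subgroup Γ) ≤ cz Q R := by
    rw [Subgroup.commutator_le]
    intro y hy y' hy'
    exact hL2b y hy y' hy'
  have hDQ : (⁅Q, Q⁆ : Subgroup Γ) ≤ Q := hDZ.trans hZQ
  have hD1 : (⁅Q, Q⁆ : Subgroup Γ) ≠ ⊥ := by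
    intro h0
    apply hnab
    intro x hx y hy
    have hxy : ⁅x, y⁆ ∈ (⁅Q, Q⁆ : Subgroup Γ) := Subgroup.commutator_mem_commutator hx hy
    rw [h0, Subgroup.mem_bot, commutatorElement_eq_one_iff_mul_comm] at hxy
    exact hxy
  have hA_Z : ∀ a ∈ A, a ∈ normalizer ((cz Q R : Subgroup Γ) : Set Γ) := fun a ha =>
    nz_inf (tw.hAQ ha) (nz_centralizer (tw.hAR ha))
  by_cases hcase : ∃ z ∈ cz Q R, z ≠ 1 ∧ ∀ a ∈ F, a * z = z * a
  · -- Case 1
    obtain ⟨z, hz, hz1, hzF⟩ := hcase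
    have hZF_le : (cz Q R ⊓ centralizer (F : Set Γ) : Subgroup Γ) ≤ Q := fun x hx => hZQ hx.1
    have hZF1 : (cz Q R ⊓ centralizer (F : Set Γ) : Subgroup Γ) ≠ ⊥ := by
      intro h0
      have hzm : z ∈ (cz Q R ⊓ centralizer (F : Set Γ) : Subgroup Γ) :=
        Subgroup.mem_inf.mpr ⟨hz, mem_centralizer_iff.mpr (fun a ha => hzF a ha)⟩
      rw [h0, mem_bot] at hzm
      exact hz1 hzm
    have hAZF : A ≤ normalizer ((cz Q R ⊓ centralizer (F : Set Γ) : Subgroup Γ) : Set Γ) :=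
      fun a ha => nz_inf (hA_Z a ha) (nz_centralizer (tw.frob.hAF ha))
    have hQZF : Q ≤ normalizer ((cz Q R ⊓ centralizer (F : Set Γ) : Subgroup Γ) : Set Γ) :=
      fun y hy => inon_nz_of_comm (fun x hx => (hL2a x hx.1 y hy).symm)
    have hRZF : R ≤ normalizer ((cz Q R ⊓ centralizer (F : Set Γ) : Subgroup Γ) : Set Γ) :=
      fun x hx => inon_nz_of_comm (fun w hw => (mem_cz.mp hw.1).2 x hx)
    have hCVF : ∀ v ∈ V, (∀ a ∈ F, a * v = v * a) → v = 1 := by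
      intro v hv hvF
      apply hL3b _ hZF_le hZF1 hAZF hQZF hRZF v hv
      intro n hn
      have hnF : ∀ a ∈ F, a * n = n * a := fun a ha => (mem_centralizer_iff.mp hn.2) a ha
      exact (tw.hnVQ v hv n (hZF_le hn) hvF hnF).symm
    have hFQ : ∃ a ∈ F, ∃ y ∈ Q, a * y ≠ y * a := by
      by_contra hcon
      push Not at hcon
      apply hnab
      intro x hx y hy
      have hxZ : x ∈ cz Q R := hCQF x hx (fun a ha => hcon a ha x hx)
      exact hL2a x hxZ y hy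
    exact h1 Γ p ℓ r q s A F V Q R tw hCVF hFQ
  · -- Case 2
    have hCQF1 : ∀ u ∈ Q, (∀ a ∈ F, a * u = u * a) → u = 1 := by
      intro u hu huF
      by_contra hu1
      exact hcase ⟨u, hCQF u hu huF, hu1, huF⟩
    have hDab : Ab (⁅Q, Q⁆ : Subgroup Γ) := fun x hx y hy => hL2a x (hDZ hx) y (hDQ hy)
    have hDexp : ∀ d ∈ (⁅Q, Q⁆ : Subgroup Γ), d ^ q = 1 := by
      have key : ∀ d ∈ (⁅Q, Q⁆ : Subgroup Γ), d ∈ cz Q R ∧ d ^ q = 1 := by
        intro d hd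
        rw [Subgroup.commutator_def] at hd
        refine Subgroup.closure_induction (p := fun d _ => d ∈ cz Q R ∧ d ^ q = 1) ?_ ?_ ?_ ?_ hd
        · rintro _ ⟨y, hy, y', hy', rfl⟩
          refine ⟨hL2b y hy y' hy', ?_⟩
          have hc : (y * y' * y⁻¹ * y'⁻¹) * y = y * (y * y' * y⁻¹ * y'⁻¹) :=
            hL2a _ (hL2b y hy y' hy') y hy
          rw [commutatorElement_def, ← inon_comm_pow hc q]
          have hyq : y ^ q * y' = y' * y ^ q := hL2a _ (hL2c y hy) y' hy'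
          rw [hyq]; group
        · exact ⟨one_mem _, one_pow _⟩
        · rintro a b _ _ ⟨ha, ha'⟩ ⟨hb, hb'⟩
          refine ⟨mul_mem ha hb, ?_⟩
          have hcomm : Commute a b := hL2a a ha b (hZQ hb)
          rw [hcomm.mul_pow, ha', hb', one_mul]
        · rintro a _ ⟨ha, ha'⟩
          exact ⟨inv_mem ha, by rw [inv_pow, ha', inv_one]⟩
      exact fun d hd => (key d hd).2
    have hAD : A ≤ normalizer ((⁅Q, Q⁆ : Subgroup Γ) : Set Γ) :=
      fun a ha => nz_comm (tw.hAQ ha) (tw.hAQ ha)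
    have hQD : Q ≤ normalizer ((⁅Q, Q⁆ : Subgroup Γ) : Set Γ) :=
      fun y hy => inon_nz_of_comm (fun d hd => (hL2a d (hDZ hd) y hy).symm)
    have hRD : R ≤ normalizer ((⁅Q, Q⁆ : Subgroup Γ) : Set Γ) :=
      fun x hx => inon_nz_of_comm (fun d hd => (mem_cz.mp (hDZ hd)).2 x hx)
    have hCVD : ∀ v ∈ V, (∀ n ∈ (⁅Q, Q⁆ : Subgroup Γ), n * v = v * n) → v = 1 :=
      hL3b _ hDQ hD1 hAD hQD hRD
    -- cardinalities
    have hp := tw.frob.hp
    have hℓ := tw.frob.hℓ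
    have : Fact r.Prime := ⟨tw.hr⟩
    have : Fact q.Prime := ⟨tw.hq⟩
    obtain ⟨nV, hnV⟩ := IsPGroup.exists_card_eq tw.hVr
    obtain ⟨nD, hnD⟩ := IsPGroup.exists_card_eq (tw.hQq.to_le hDQ)
    have cqr : Nat.Coprime q r := (Nat.coprime_primes tw.hq tw.hr).mpr tw.hqr
    have cpr : Nat.Coprime p r := (Nat.coprime_primes hp tw.hr).mpr tw.hpr
    have cℓr : Nat.Coprime ℓ r := (Nat.coprime_primes hℓ tw.hr).mpr tw.hℓr
    have cpq : Nat.Coprime p q := (Nat.coprime_primes hp tw.hq).mpr tw.hpq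
    have cℓq : Nat.Coprime ℓ q := (Nat.coprime_primes hℓ tw.hq).mpr tw.hℓq
    have hcopVq : (Nat.card V).Coprime q := by
      rw [hnV]; exact Nat.Coprime.pow_left nV cqr.symm
    have hcopAV : (Nat.card A).Coprime (Nat.card V) := by
      rw [hnV, tw.frob.hA]
      exact Nat.Coprime.mul_left (Nat.Coprime.pow_right nV cpr) (Nat.Coprime.pow_right nV cℓr)
    have hcopDV : (Nat.card (⁅Q, Q⁆ : Subgroup Γ)).Coprime (Nat.card V) := by
      rw [hnV, hnD]; exact Nat.Coprime.pow nD nV cqr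
    have hcopAD : (Nat.card A).Coprime (Nat.card (⁅Q, Q⁆ : Subgroup Γ)) := by
      rw [hnD, tw.frob.hA]
      exact Nat.Coprime.mul_left (Nat.Coprime.pow_right nD cpq) (Nat.Coprime.pow_right nD cℓq)
    -- a weight of `D` on `V`
    obtain ⟨D₁, hD₁D, hcardD, v₀, hv₀V, hv₀1, hv₀D₁⟩ :=
      h3 Γ q ⁅Q, Q⁆ V tw.hq hDab hDexp tw.hVc (hDQ.trans tw.hQV) hcopVq tw.hV1 hCVD
    obtain ⟨t, htA, htF', htD₁, htD, htM⟩ :=
      h4 Γ p ℓ q A F ⁅Q, Q⁆ V D₁ tw.frob tw.hq tw.hVc tw.hAV (hDQ.trans tw.hQV) hAD hDab hD₁D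
        hcardD hcopAV hcopDV hcopAD hCVD tw.hfixV (fun b hb hbF => hCQF1 b (hDQ hb) hbF)
        ⟨v₀, hv₀V, hv₀1, hv₀D₁⟩ t₀ ht₀A ht₀F
    have htF : t ∉ F := by
      intro h
      apply ht₀F
      have e : t₀ = t * (t₀⁻¹ * t)⁻¹ := by group
      rw [e]; exact F.mul_mem h (F.inv_mem htF')
    have hD₁Z : D₁ ≤ cz Q R := hD₁D.trans hDZ
    have hMV : (V ⊓ centralizer (D₁ : Set Γ) : Subgroup Γ) ≤ V := inf_le_left
    have hv₀M : v₀ ∈ (V ⊓ centralizer (D₁ : Set Γ) : Subgroup Γ) :=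
      Subgroup.mem_inf.mpr ⟨hv₀V, mem_centralizer_iff.mpr (fun y hy => hv₀D₁ y hy)⟩
    have hM1 : (V ⊓ centralizer (D₁ : Set Γ) : Subgroup Γ) ≠ ⊥ := by
      intro h0
      rw [h0, mem_bot] at hv₀M
      exact hv₀1 hv₀M
    have hR₀R : (R ⊓ centralizer (F : Set Γ) : Subgroup Γ) ≤ R := inf_le_left
    have hQM : Q ≤ normalizer ((V ⊓ centralizer (D₁ : Set Γ) : Subgroup Γ) : Set Γ) :=
      fun y hy => nz_inf (tw.hQV hy)
        (nz_centralizer (inon_nz_of_comm (fun d hd => (hL2a d (hD₁Z hd) y hy).symm)))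
    have htM' : t ∈ normalizer ((V ⊓ centralizer (D₁ : Set Γ) : Subgroup Γ) : Set Γ) :=
      nz_inf (tw.hAV htA) (nz_centralizer htD₁)
    have hR₀M : (R ⊓ centralizer (F : Set Γ) : Subgroup Γ) ≤
        normalizer ((V ⊓ centralizer (D₁ : Set Γ) : Subgroup Γ) : Set Γ) :=
      fun x hx => nz_inf (tw.hRV (hR₀R hx))
        (nz_centralizer (inon_nz_of_comm (fun d hd => (mem_cz.mp (hD₁Z hd)).2 x (hR₀R hx))))
    have htR₀ : t ∈ normalizer ((R ⊓ centralizer (F : Set Γ) : Subgroup Γ) : Set Γ) :=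
      nz_inf (tw.hAR htA) (nz_centralizer (tw.frob.hAF htA))
    have hMt : ∀ m ∈ (V ⊓ centralizer (D₁ : Set Γ) : Subgroup Γ), t * m = m * t → m = 1 :=
      fun m hm h => htM m hm.1 (fun y hy => (mem_centralizer_iff.mp hm.2) y hy) h
    have hRt : ∀ x ∈ (R ⊓ centralizer (F : Set Γ) : Subgroup Γ), t * x = x * t → x = 1 := by
      intro x hx hxt
      apply tw.hfixR x (hR₀R hx)
      intro a ha
      obtain ⟨f, hf, i, rfl⟩ := hA3 t htA htF a ha
      have hfx : f * x = x * f := (mem_centralizer_iff.mp hx.2) f hf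
      have htx : t ^ i * x = x * t ^ i := (Commute.pow_left (show Commute t x from hxt) i).eq
      calc f * t ^ i * x = f * (t ^ i * x) := by rw [mul_assoc]
        _ = f * (x * t ^ i) := by rw [htx]
        _ = (f * x) * t ^ i := by rw [mul_assoc]
        _ = (x * f) * t ^ i := by rw [hfx]
        _ = x * (f * t ^ i) := by rw [mul_assoc]
    have hQR₀ : ⁅Q, (R ⊓ centralizer (F : Set Γ) : Subgroup Γ)⁆ = Q := by
      apply le_antisymm
      · calc ⁅Q, (R ⊓ centralizer (F : Set Γ) : Subgroup Γ)⁆ ≤ ⁅Q, R⁆ :=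
              Subgroup.commutator_mono le_rfl hR₀R
          _ = Q := tw.hE5
      · conv_lhs => rw [← tw.hE5]
        rw [Subgroup.commutator_le]
        intro y hy x hx
        obtain ⟨n, hn, hxn⟩ := hL1d' x hx
        rw [mem_cz] at hn
        have hx₀ : x * n ∈ (R ⊓ centralizer (F : Set Γ) : Subgroup Γ) :=
          Subgroup.mem_inf.mpr ⟨R.mul_mem hx hn.1, mem_centralizer_iff.mpr (fun a ha => hxn a ha)⟩
        have hyn : y * n = n * y := hn.2 y hy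
        have hyn' : n * y⁻¹ = y⁻¹ * n := by
          calc n * y⁻¹ = y⁻¹ * (y * n) * y⁻¹ := by group
            _ = y⁻¹ * (n * y) * y⁻¹ := by rw [hyn]
            _ = y⁻¹ * n := by group
        have e : ⁅y, x⁆ = ⁅y, x * n⁆ := by
          rw [commutatorElement_def, commutatorElement_def]
          calc y * x * y⁻¹ * x⁻¹ = y * x * (y⁻¹ * n) * n⁻¹ * x⁻¹ := by group
            _ = y * x * (n * y⁻¹) * n⁻¹ * x⁻¹ := by rw [hyn']
            _ = y * (x * n) * y⁻¹ * (x * n)⁻¹ := by group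
        rw [e]
        exact Subgroup.commutator_mem_commutator hy hx₀
    have hle : D₁ ≤ (⁅Q, Q⁆ ⊓ cz Q (V ⊓ centralizer (D₁ : Set Γ)) : Subgroup Γ) := by
      intro d hd
      refine Subgroup.mem_inf.mpr ⟨hD₁D hd, ?_⟩
      rw [mem_cz]
      refine ⟨hDQ (hD₁D hd), fun m hm => ?_⟩
      exact ((mem_centralizer_iff.mp (Subgroup.mem_inf.mp hm).2) d hd).symm
    have hK : (⁅Q, Q⁆ ⊓ cz Q (V ⊓ centralizer (D₁ : Set Γ)) : Subgroup Γ) = D₁ := by
      symm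
      apply Subgroup.eq_of_le_of_card_ge hle
      obtain ⟨k, hk⟩ := Subgroup.card_dvd_of_le hle
      have hKD : Nat.card (⁅Q, Q⁆ ⊓ cz Q (V ⊓ centralizer (D₁ : Set Γ)) : Subgroup Γ) ∣
          Nat.card (⁅Q, Q⁆ : Subgroup Γ) := Subgroup.card_dvd_of_le inf_le_left
      have hD₁pos : 0 < Nat.card D₁ := Nat.card_pos
      have hkq : k ∣ q := by
        rw [hk, hcardD, mul_comm q] at hKD
        exact Nat.dvd_of_mul_dvd_mul_left hD₁pos hKD
      rcases (Nat.dvd_prime tw.hq).mp hkq with rfl | rfl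
      · rw [hk, mul_one]
      · exfalso
        have hKeq : (⁅Q, Q⁆ ⊓ cz Q (V ⊓ centralizer (D₁ : Set Γ)) : Subgroup Γ) = ⁅Q, Q⁆ := by
          apply Subgroup.eq_of_le_of_card_ge inf_le_left
          rw [hk, hcardD, mul_comm]
        apply hv₀1
        apply hCVD v₀ hv₀V
        intro n hn
        have hn' : n ∈ (⁅Q, Q⁆ ⊓ cz Q (V ⊓ centralizer (D₁ : Set Γ)) : Subgroup Γ) := by
          rw [hKeq]; exact hn
        exact ((mem_cz.mp hn'.2).2 v₀ hv₀M).symm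
    refine h2 Γ q r s ℓ (V ⊓ centralizer (D₁ : Set Γ)) Q (R ⊓ centralizer (F : Set Γ)) t
      tw.hq tw.hr tw.hs tw.frob.hℓ (hA2 t htA htF) tw.hQq
      (fun x hx y hy => tw.hVc x (hMV hx) y (hMV hy)) (fun m hm => hL3a m (hMV hm)) hM1
      (tw.hRs.to_le hR₀R) tw.hqr tw.hqs tw.hℓq tw.hℓr tw.hℓs hQM htM' hR₀M
      (hR₀R.trans tw.hRQ) (tw.hAQ htA) htR₀ hMt hRt hQR₀ ?_ ?_ ?_ ?_
    · rw [hK]; exact hcardD
    · intro d hd
      exact (hle (htD d hd)).2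
    · intro d hd x hx
      exact (mem_cz.mp (hDZ hd)).2 x (hR₀R hx)
    · intro y hy x hx
      exact (mem_cz.mp (hL2c y hy)).2 x (hR₀R hx)

end Cfsg.Agent.Lib.Helper76.PQ
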