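import Cfsg.Agent.Lib.Helper98.T73Defs

/-!
# Project T73 (S5973, helper98), assembly piece LCNT

`lcnt_of`: the statement of LCNT with the sibling pieces WIEX (`wi_exists`), COUNTQ
(`exists_qi_of_dvd_card`), LFIX (`lfix`), LEX (`lex`), FIXCNT (`card_ts_modEq_fixed`) and NOISO
(`no_qi_small`) as hypotheses (each with exactly the type of the sibling theorem, so that
`lcnt_of (@wi_exists F _ _) (@exists_qi_of_dvd_card F _ _) (@lfix F _ _) (@lex F _ _)
(@card_ts_modEq_fixed F _ _) (@no_qi_small F _ _)` is LCNT).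
-/

set_option autoImplicit false
set_option linter.unusedVariables false

namespace Cfsg.Agent.Lib.Helper98.T73

open Cfsg.Agent.Lib.Helper47 Module Polynomial

universe u

variable {F : Type u} [Field F] [Fintype F] {V : Type u} [AddCommGroup V] [Module F V]
  [FiniteDimensional F V] {Q : V → F} {B : V → V → F}

/-- the arithmetic of the largest valid `A` -/
theorem LCNT_arith (ε : ℤ) (hε : ε = 1 ∨ ε = -1) (i d A m : ℕ) (hi : 1 ≤ i)
    (hA : Valid ε i d A) (hmax : ∀ A', Valid ε i d A' → A' ≤ A)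
    (hm : 1 ≤ m) (hmom : m ≤ om ε i d A) :
    ∃ e : ℕ, 2 * d - i * A = 2 * e + 2 ∧ m ≤ wi e (ε * sgn i A) ∧
      (2 * e + 2 < (if Even i then i else 2 * i) ∨
        (2 * e + 2 = (if Even i then i else 2 * i) ∧
          ε * sgn i A = (if Even i then 1 else -1))) := by
  obtain ⟨hA1, hA2, hA3, hA4⟩ := hA
  have h1 : 2 * d ≠ i * A := by
    intro h
    unfold om at hmom
    rw [if_pos h] at hmom
    omega
  have hevA : Even (i * A) := by
    by_cases hev : Even i
    · exact hev.mul_right A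
    · exact (hA3 (Nat.not_even_iff_odd.mp hev)).mul_left i
  obtain ⟨c, hc⟩ := hevA
  obtain ⟨e, he⟩ : ∃ e : ℕ, 2 * d - i * A = 2 * e + 2 := ⟨d - c - 1, by omega⟩
  refine ⟨e, he, ?_, ?_⟩
  · unfold om at hmom
    rw [if_neg h1] at hmom
    unfold wi
    by_cases hη : ε * sgn i A = 1
    · rw [if_pos hη] at hmom ⊢
      omega
    · rw [if_neg hη] at hmom ⊢
      omega
  · by_contra hcon
    push Not at hcon
    obtain ⟨hc1, hc2⟩ := hcon
    by_cases hev : Even i
    · rw [if_pos hev] at hc1 hc2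
      rw [if_pos hev] at hc2
      have hV : Valid ε i d (A + 1) := by
        refine ⟨by omega, ?_, fun ho => absurd hev (Nat.not_even_iff_odd.mpr ho), ?_⟩
        · rw [Nat.mul_succ]
          omega
        · intro h2
          rw [Nat.mul_succ] at h2
          have h3 : ¬ (ε * sgn i A = 1) := hc2 (by omega)
          unfold sgn at h3 ⊢
          rw [if_pos hev] at h3 ⊢
          rw [pow_succ]
          rcases neg_one_pow_eq_or ℤ A with h4 | h4 <;> rcases hε with h5 | h5 <;>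
            rw [h4, h5] at h3 <;> rw [h4, h5] <;> simp at h3 ⊢
      have := hmax _ hV
      omega
    · rw [if_neg hev] at hc1 hc2
      rw [if_neg hev] at hc2
      have hEA : Even A := hA3 (Nat.not_even_iff_odd.mp hev)
      have hV : Valid ε i d (A + 2) := by
        refine ⟨by omega, ?_, fun _ => ?_, ?_⟩
        · rw [Nat.mul_add]
          omega
        · obtain ⟨a, ha⟩ := hEA
          exact ⟨a + 1, by omega⟩
        · intro h2
          rw [Nat.mul_add] at h2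
          have h3 : ¬ (ε * sgn i A = -1) := hc2 (by omega)
          unfold sgn at h3 ⊢
          rw [if_neg hev] at h3 ⊢
          rcases hε with h5 | h5
          · exact h5.symm
          · rw [h5] at h3
            simp at h3
      have := hmax _ hV
      omega

/-- LCNT from the sibling pieces. -/
theorem lcnt_of
    (WIEX : ∀ {V : Type u} [AddCommGroup V] [Module F V] [FiniteDimensional F V] {Q : V → F}
      {B : V → V → F} (hf : QFacts F) (hQ : IsQuad Q B) (hnd : Nondeg B) (k : ℕ)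
      (hdim : finrank F V = 2 * k + 2) (ε : ℤ) (htyp : IsTyp Q k ε)
      (p : ℕ) [Fact p.Prime] [CharP F p] (w : ℕ) (hw : w ≤ wi k ε),
      ∃ U : Submodule F V, finrank F U = w ∧ TS Q U)
    (COUNTQ : ∀ {V : Type u} [AddCommGroup V] [Module F V] [FiniteDimensional F V] {Q : V → F}
      {B : V → V → F} (hQ : IsQuad Q B) (hnd : Nondeg B) (m : ℕ)
      (hne : ∃ W : Submodule F V, finrank F W = m ∧ TS Q W) (r : ℕ) (hr : r.Prime)
      (hdvd : r ∣ Nat.card {W : Submodule F V // finrank F W = m ∧ TS Q W}),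
      ∃ g : Module.End F V, QI Q g ∧ g ^ r = 1 ∧ g ≠ 1)
    (LFIX : ∀ {V : Type u} [AddCommGroup V] [Module F V] [FiniteDimensional F V] {Q : V → F}
      {B : V → V → F} (hf : QFacts F) (hQ : IsQuad Q B) (hnd : Nondeg B) (d : ℕ) (hd : 1 ≤ d)
      (hdim : finrank F V = 2 * d) (ε : ℤ) (hε : ε = 1 ∨ ε = -1) (htyp : IsTyp Q (d - 1) ε)
      (p : ℕ) [Fact p.Prime] [CharP F p] (r : ℕ) (hr : r.Prime) (hr2 : r ≠ 2) (hrp : r ≠ p)
      (g : Module.End F V) (hgQ : QI Q g) (hg : g ^ r = 1) (hg1 : g ≠ 1),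
      ∃ A : ℕ, Valid ε (orderOf ((Fintype.card F : ℕ) : ZMod r)) d A ∧
        ∀ j w : ℕ, JC (orderOf ((Fintype.card F : ℕ) : ZMod r))
            ((r - 1) / orderOf ((Fintype.card F : ℕ) : ZMod r)) A j →
          w ≤ om ε (orderOf ((Fintype.card F : ℕ) : ZMod r)) d A →
          ∃ W : Submodule F V, finrank F W = orderOf ((Fintype.card F : ℕ) : ZMod r) * j + w ∧
            TS Q W ∧ W.map g ≤ W)
    (LEX : ∀ {V : Type u} [AddCommGroup V] [Module F V] [FiniteDimensional F V] {Q : V → F}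
      {B : V → V → F} (hf : QFacts F) (hQ : IsQuad Q B) (hnd : Nondeg B) (d : ℕ) (hd : 1 ≤ d)
      (hdim : finrank F V = 2 * d) (ε : ℤ) (hε : ε = 1 ∨ ε = -1) (htyp : IsTyp Q (d - 1) ε)
      (p : ℕ) [Fact p.Prime] [CharP F p] (r : ℕ) (hr : r.Prime) (hr2 : r ≠ 2) (hrp : r ≠ p)
      (A : ℕ) (hA : Valid ε (orderOf ((Fintype.card F : ℕ) : ZMod r)) d A),
      ∃ g : Module.End F V, QI Q g ∧ g ^ r = 1 ∧ g ≠ 1 ∧
        finrank F (LinearMap.ker (g - 1))
          = 2 * d - orderOf ((Fintype.card F : ℕ) : ZMod r) * A ∧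
        (∀ e : ℕ, 2 * d - orderOf ((Fintype.card F : ℕ) : ZMod r) * A = 2 * e + 2 →
          SubTyp Q B (LinearMap.ker (g - 1)) e
            (ε * sgn (orderOf ((Fintype.card F : ℕ) : ZMod r)) A)) ∧
        ∀ W : Submodule F V, TS Q W → W.map g ≤ W →
          ∃ j w : ℕ, JC (orderOf ((Fintype.card F : ℕ) : ZMod r))
              ((r - 1) / orderOf ((Fintype.card F : ℕ) : ZMod r)) A j ∧
            w ≤ om ε (orderOf ((Fintype.card F : ℕ) : ZMod r)) d A ∧
            finrank F W = orderOf ((Fintype.card F : ℕ) : ZMod r) * j + w)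
    (FIXCNT : ∀ {V : Type u} [AddCommGroup V] [Module F V] [FiniteDimensional F V] {Q : V → F}
      (p : ℕ) [Fact p.Prime] [CharP F p] (r : ℕ) (hr : r.Prime)
      (hrp : r ≠ p) (g : Module.End F V) (hgQ : QI Q g) (hg : g ^ r = 1) (m : ℕ)
      (hmi : m < orderOf ((Fintype.card F : ℕ) : ZMod r)),
      Nat.card {W : Submodule F V // finrank F W = m ∧ TS Q W} ≡
        Nat.card {W : Submodule F ↥(LinearMap.ker (g - 1)) //
          finrank F W = m ∧ TS (fun w : ↥(LinearMap.ker (g - 1)) => Q (w : V)) W} [MOD r])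
    (NOISO : ∀ {V : Type u} [AddCommGroup V] [Module F V] [FiniteDimensional F V] {Q : V → F}
      {B : V → V → F} (hf : QFacts F) (hQ : IsQuad Q B) (hnd : Nondeg B) (k : ℕ)
      (hdim : finrank F V = 2 * k + 2) (ε : ℤ) (htyp : IsTyp Q k ε)
      (p : ℕ) [Fact p.Prime] [CharP F p] (r : ℕ) (hr : r.Prime) (hr2 : r ≠ 2) (hrp : r ≠ p)
      (hsmall : 2 * k + 2 < (if Even (orderOf ((Fintype.card F : ℕ) : ZMod r))
            then orderOf ((Fintype.card F : ℕ) : ZMod r)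
            else 2 * orderOf ((Fintype.card F : ℕ) : ZMod r)) ∨
        (2 * k + 2 = (if Even (orderOf ((Fintype.card F : ℕ) : ZMod r))
            then orderOf ((Fintype.card F : ℕ) : ZMod r)
            else 2 * orderOf ((Fintype.card F : ℕ) : ZMod r)) ∧
          ε = (if Even (orderOf ((Fintype.card F : ℕ) : ZMod r)) then 1 else -1)))
      (g : Module.End F V) (hgQ : QI Q g) (hg : g ^ r = 1), g = 1)
    (hf : QFacts F) (hQ : IsQuad Q B) (hnd : Nondeg B) (d : ℕ) (hd : 2 ≤ d)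
    (hdim : finrank F V = 2 * d) (ε : ℤ) (hε : ε = 1 ∨ ε = -1) (htyp : IsTyp Q (d - 1) ε)
    (p : ℕ) [Fact p.Prime] [CharP F p] (r : ℕ) (hr : r.Prime) (hr2 : r ≠ 2) (hrp : r ≠ p)
    (m : ℕ) (hm : 1 ≤ m) (hmd : m + 1 ≤ d)
    (hmi : m < orderOf ((Fintype.card F : ℕ) : ZMod r))
    (hrΩ : r ∣ Nat.card {W : Submodule F V // finrank F W = m ∧ TS Q W})
    (hall : ∀ g : Module.End F V, QI Q g → g ^ r = 1 → g ≠ 1 →
      ∃ W : Submodule F V, finrank F W = m ∧ TS Q W ∧ W.map g ≤ W) : False := by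
  classical
  obtain ⟨i, hi⟩ : ∃ i, i = orderOf ((Fintype.card F : ℕ) : ZMod r) := ⟨_, rfl⟩
  have hmi' : m < i := by rw [hi]; exact hmi
  have hi1 : 1 ≤ i := by omega
  have hdim' : finrank F V = 2 * (d - 1) + 2 := by omega
  -- a totally singular `m`-space, an isometry of order `r`
  have hwi : m ≤ wi (d - 1) ε := by
    unfold wi
    split_ifs <;> omega
  obtain ⟨W₀, hW₀, hW₀ts⟩ := WIEX hf hQ hnd (d - 1) hdim' ε htyp p m hwi
  obtain ⟨g₀, hg₀Q, hg₀r, hg₀1⟩ := COUNTQ hQ hnd m ⟨W₀, hW₀, hW₀ts⟩ r hr hrΩ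
  obtain ⟨A₀, hA₀, -⟩ :=
    LFIX hf hQ hnd d (by omega) hdim ε hε htyp p r hr hr2 hrp g₀ hg₀Q hg₀r hg₀1
  rw [← hi] at hA₀
  -- the largest valid `A`
  have hbound : ∀ A', Valid ε i d A' → A' ≤ 2 * d := by
    intro A' hA'
    calc A' = 1 * A' := (one_mul _).symm
      _ ≤ i * A' := Nat.mul_le_mul_right _ hi1
      _ ≤ 2 * d := hA'.2.1
  obtain ⟨A, hA, hmax⟩ : ∃ A, Valid ε i d A ∧ ∀ A', Valid ε i d A' → A' ≤ A :=
    ⟨Nat.findGreatest (fun A => Valid ε i d A) (2 * d),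
      Nat.findGreatest_spec (hbound A₀ hA₀) hA₀,
      fun A' hA' => Nat.le_findGreatest (hbound A' hA') hA'⟩
  obtain ⟨g, hgQ, hgr, hg1, hker, hsub, hW⟩ :=
    LEX hf hQ hnd d (by omega) hdim ε hε htyp p r hr hr2 hrp A (by rw [← hi]; exact hA)
  rw [← hi] at hker hsub hW
  obtain ⟨W, hWm, hWts, hWg⟩ := hall g hgQ hgr hg1
  obtain ⟨j, w, hj, hw, hWjw⟩ := hW W hWts hWg
  have hj0 : j = 0 := by
    by_contra hj0
    have h1 : i ≤ i * j := Nat.le_mul_of_pos_right i (Nat.pos_of_ne_zero hj0)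
    omega
  have hmw : m = w := by
    rw [hWm, hj0] at hWjw
    omega
  obtain ⟨e, he, hmwi, hsmall⟩ :=
    LCNT_arith ε hε i d A m hi1 hA hmax hm (by rw [hmw]; exact hw)
  obtain ⟨hCnd, hCdim, hCtyp⟩ := hsub e he
  have hQC := hQ.res (LinearMap.ker (g - 1))
  -- counting in the fixed space
  have hcnt := FIXCNT p r hr hrp g hgQ hgr m hmi
  have hdvdC : r ∣ Nat.card {W : Submodule F ↥(LinearMap.ker (g - 1)) //
      finrank F W = m ∧ TS (fun w : ↥(LinearMap.ker (g - 1)) => Q (w : V)) W} :=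
    Nat.modEq_zero_iff_dvd.mp (hcnt.symm.trans (Nat.modEq_zero_iff_dvd.mpr hrΩ))
  obtain ⟨U, hU, hUts⟩ := WIEX hf hQC hCnd e hCdim _ hCtyp p m hmwi
  obtain ⟨h, hhQ, hhr, hh1⟩ := COUNTQ hQC hCnd m ⟨U, hU, hUts⟩ r hr hdvdC
  exact hh1 (NOISO hf hQC hCnd e hCdim _ hCtyp p r hr hr2 hrp (by rw [← hi]; exact hsmall)
    h hhQ hhr)

end Cfsg.Agent.Lib.Helper98.T73
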